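import Mathlib

/-! Extensions of a finite group by an abelian group, lifts of subgroups, and crossed homomorphisms. -/

set_option autoImplicit false

namespace Cfsg.Agent.B43

open Subgroup Multiplicative

universe u

/-- Multiplication by `n` is bijective. -/
def Dv (V : Type*) [AddCommGroup V] (n : ℕ) : Prop := Function.Bijective fun v : V => n • v

/-- All numbers prime to `p` are invertible on `V`. -/
def Chr (V : Type*) [AddCommGroup V] (p : ℕ) : Prop := ∀ n : ℕ, ¬ p ∣ n → Dv V n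

theorem chr_module (F V : Type*) [Field F] [AddCommGroup V] [Module F V] : Chr V (ringChar F) := fun n hn => by
  have h : (n : F) ≠ 0 := fun e => hn ((ringChar.spec F n).1 e)
  refine Function.bijective_iff_has_inverse.2 ⟨fun v => (n : F)⁻¹ • v, fun v => ?_, fun v => ?_⟩
  · simp only [← Nat.cast_smul_eq_nsmul F, smul_smul, inv_mul_cancel₀ h, one_smul]
  · simp only [← Nat.cast_smul_eq_nsmul F, smul_smul, mul_inv_cancel₀ h, one_smul]

variable {G V X : Type*} [Group G] [AddCommGroup V] [DistribMulAction G V] [Group X]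

theorem Dv.eq_zero {n : ℕ} (h : Dv V n) {v : V} (e : n • v = 0) : v = 0 := h.1 (by simpa using e)

theorem Dv.eq_zero_of_neg (h : Dv V 2) {v : V} (e : v = -v) : v = 0 :=
  h.eq_zero (by rw [two_nsmul]; exact add_eq_zero_iff_eq_neg.2 e)

/-- `v` is fixed by `S`. -/
def Fx (S : Subgroup G) (v : V) : Prop := ∀ g ∈ S, g • v = v

theorem Fx.mono {S T : Subgroup G} {v : V} (h : Fx T v) (k : S ≤ T) : Fx S v := fun g hg => h g (k hg)

theorem Fx.sub {S : Subgroup G} {v w : V} (h : Fx S v) (k : Fx S w) : Fx S (v - w) := fun g hg => by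
  rw [smul_sub, h g hg, k g hg]

theorem Fx.add {S : Subgroup G} {v w : V} (h : Fx S v) (k : Fx S w) : Fx S (v + w) := fun g hg => by
  rw [smul_add, h g hg, k g hg]

theorem Fx.smul {R : Subgroup G} {v : V} {g : G} (h : Fx R v) (n : ∀ r ∈ R, g⁻¹ * r * g ∈ R) :
    Fx R (g • v) := fun r hr => by
  rw [← mul_smul, show r * g = g * (g⁻¹ * r * g) by group, mul_smul, h _ (n r hr)]

/-- Crossed homomorphisms on `S`. -/
def Z1 (S : Subgroup G) (δ : G → V) : Prop := ∀ g ∈ S, ∀ h ∈ S, δ (g * h) = δ g + g • δ h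

variable (V) in
/-- Every crossed homomorphism on `S` is principal. -/
def H1z (S : Subgroup G) : Prop := ∀ δ : G → V, Z1 S δ → ∃ a : V, ∀ g ∈ S, δ g = g • a - a

section Z

variable {S U R : Subgroup G} {δ : G → V}

theorem Z1.mono (h : Z1 S δ) (k : U ≤ S) : Z1 U δ := fun g hg l hl => h g (k hg) l (k hl)

theorem Z1.one (h : Z1 S δ) : δ 1 = 0 := by simpa using h 1 S.one_mem 1 S.one_mem

theorem Z1.sub_cob (h : Z1 S δ) (a : V) : Z1 S fun g => δ g - (g • a - a) := fun g hg l hl => by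
  simp only [h g hg l hl, smul_sub, mul_smul]; abel

theorem Z1.cob [Finite G] (h : Z1 S δ) (_k : U ≤ S) (hn : Dv V (U.relIndex S)) (h0 : ∀ u ∈ U, δ u = 0) :
    ∃ a : V, ∀ g ∈ S, δ g = g • a - a := by
  classical
  let Q := S ⧸ U.subgroupOf S
  have : Fintype Q := Fintype.ofFinite _
  let d : Q → V := fun c => Quotient.liftOn' c (fun g : S => δ g) fun a b hab => by
    have := h a a.2 _ (a⁻¹ * b).2
    rw [h0 (a⁻¹ * b : S) (mem_subgroupOf.1 (QuotientGroup.leftRel_apply.1 hab)), smul_zero, add_zero] at this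
    simpa using this.symm
  obtain ⟨a, ha⟩ := hn.2 (-∑ c, d c)
  refine ⟨a, fun g hg => hn.1 ?_⟩
  have e : ∑ c, d ((⟨g, hg⟩ : S) • c) = ∑ c, (δ g + g • d c) := Finset.sum_congr rfl fun c _ => by
    induction c using QuotientGroup.induction_on with
    | H x => exact h g hg x x.2
  rw [show ∑ c, d ((⟨g, hg⟩ : S) • c) = ∑ c, d c from Equiv.sum_comp (MulAction.toPerm (⟨g, hg⟩ : S)) d,
    Finset.sum_add_distrib, ← Finset.smul_sum, Finset.sum_const, Finset.card_univ, ← Nat.card_eq_fintype_card] at e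
  simp only at ha ⊢
  rw [smul_sub, smul_comm, ha, smul_neg, relIndex, index_eq_card]
  rw [eq_comm, ← eq_sub_iff_add_eq] at e
  rw [e]; abel

theorem H1z.up [Finite G] (h : H1z V U) (k : U ≤ S) (hn : Dv V (U.relIndex S)) : H1z V S := fun δ hδ => by
  obtain ⟨a, ha⟩ := h δ (hδ.mono k)
  obtain ⟨b, hb⟩ := (hδ.sub_cob a).cob k hn fun u hu => by rw [ha u hu, sub_self]
  exact ⟨a + b, fun g hg => by rw [smul_add, eq_add_of_sub_eq (hb g hg)]; abel⟩

theorem h1z_bot : H1z V (⊥ : Subgroup G) := fun δ h =>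
  ⟨0, fun g hg => by rw [mem_bot.1 hg, h.one, smul_zero, sub_self]⟩

theorem h1z_card [Finite G] (hn : Dv V (Nat.card S)) : H1z V S :=
  h1z_bot.up bot_le (by rwa [relIndex_bot_left])

/-- Vanishing of `H¹` for a group that is perfect modulo `R` and fixes the fixed points of `R`. -/
theorem h1z_perf [Finite G] (k : R ≤ S) (n : ∀ g ∈ S, ∀ r ∈ R, g * r * g⁻¹ ∈ R) (hn : Dv V (Nat.card R))
    (fx : ∀ v : V, Fx R v → Fx S v) (pf : S ≤ ⁅S, S⁆ ⊔ R) : H1z V S := fun δ hδ => by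
  obtain ⟨a, ha⟩ := h1z_card hn δ (hδ.mono k)
  have h := hδ.sub_cob a
  set ε : G → V := fun g => δ g - (g • a - a) with hε
  have h0 : ∀ r ∈ R, ε r = 0 := fun r hr => by simp only [hε, ha r hr, sub_self]
  have h1 : ∀ g ∈ S, ∀ l ∈ S, ε (g * l) = ε g + ε l := fun g hg l hl => by
    rw [h g hg l hl, fx (ε l) (fun r hr => ?_) g hg]
    have e1 := h r (k hr) l hl
    have e2 := h l hl _ (k (n _ (inv_mem hl) r hr))
    rw [h0 _ (n _ (inv_mem hl) r hr), smul_zero, add_zero, show l * (l⁻¹ * r * l⁻¹⁻¹) = r * l by group] at e2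
    rw [h0 r hr, zero_add] at e1
    exact e1.symm.trans e2
  have h2 : ∀ g ∈ S, ε g⁻¹ = -ε g := fun g hg => by
    rw [eq_neg_iff_add_eq_zero, ← h1 _ (inv_mem hg) g hg, inv_mul_cancel, h.one]
  let N : Subgroup G :=
    { carrier := {g | g ∈ S ∧ ε g = 0}
      one_mem' := ⟨S.one_mem, h.one⟩
      mul_mem' := fun x y => ⟨mul_mem x.1 y.1, by rw [h1 _ x.1 _ y.1, x.2, y.2, add_zero]⟩
      inv_mem' := fun x => ⟨inv_mem x.1, by rw [h2 _ x.1, x.2, neg_zero]⟩ }
  have hN : S ≤ N := pf.trans (sup_le (commutator_le.2 fun g hg l hl => ⟨?_, ?_⟩) fun r hr => ⟨k hr, h0 r hr⟩)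
  · exact ⟨a, fun g hg => sub_eq_zero.1 (hN hg).2⟩
  · exact mul_mem (mul_mem (mul_mem hg hl) (inv_mem hg)) (inv_mem hl)
  · rw [commutatorElement_def, h1 _ (mul_mem (mul_mem hg hl) (inv_mem hg)) _ (inv_mem hl),
      h1 _ (mul_mem hg hl) _ (inv_mem hg), h1 g hg l hl, h2 g hg, h2 l hl]
    abel

theorem H1z.map {G' : Type*} [Group G'] [DistribMulAction G' V] (φ : G' →* G) (hφ : ∀ g (v : V), g • v = φ g • v)
    {S' : Subgroup G'} (h : H1z V S') : H1z V (S'.map φ) := fun δ hδ => by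
  obtain ⟨a, ha⟩ := h (δ ∘ φ) fun g hg l hl => by
    simp only [Function.comp, map_mul, hφ]
    exact hδ _ (mem_map_of_mem φ hg) _ (mem_map_of_mem φ hl)
  refine ⟨a, ?_⟩
  rintro _ ⟨g, hg, rfl⟩
  rw [← hφ]; exact ha g hg

end Z

variable (G V X) in
/-- `X` is an extension of `G` by the module `V`. -/
structure Ext where
  π : X →* G
  ι : Multiplicative V →* X
  surj : Function.Surjective π
  inj : Function.Injective ι
  ker : ∀ x, π x = 1 ↔ ∃ v, ι (ofAdd v) = x
  conj : ∀ x v, x * ι (ofAdd v) * x⁻¹ = ι (ofAdd (π x • v))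

namespace Ext

variable (e : Ext G V X)

/-- The element of `X` that belongs to `v`. -/
def i (v : V) : X := e.ι (ofAdd v)

theorem i_add (v w : V) : e.i (v + w) = e.i v * e.i w := by simp only [i, ofAdd_add, map_mul]

theorem i_zero : e.i 0 = 1 := by simp only [i, ofAdd_zero, map_one]

theorem i_neg (v : V) : e.i (-v) = (e.i v)⁻¹ := by simp only [i, ofAdd_neg, map_inv]

theorem i_nsmul (n : ℕ) (v : V) : e.i (n • v) = e.i v ^ n := by simp only [i, ofAdd_nsmul, map_pow]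

theorem i_inj {v w : V} : e.i v = e.i w ↔ v = w := ⟨fun h => ofAdd.injective (e.inj h), congrArg _⟩

theorem i_eq_one {v : V} : e.i v = 1 ↔ v = 0 := by rw [← e.i_zero, i_inj]

theorem π_i (v : V) : e.π (e.i v) = 1 := (e.ker _).2 ⟨v, rfl⟩

theorem cj (x : X) (v : V) : x * e.i v * x⁻¹ = e.i (e.π x • v) := e.conj x v

theorem mul_i (x : X) (v : V) : x * e.i v = e.i (e.π x • v) * x := by rw [← cj, inv_mul_cancel_right]

theorem ex_i {x y : X} (h : e.π x = e.π y) : ∃ v, x = e.i v * y := by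
  obtain ⟨v, hv⟩ := (e.ker (x * y⁻¹)).1 (by rw [map_mul, map_inv, h, mul_inv_cancel])
  exact ⟨v, by rw [i, hv, inv_mul_cancel_right]⟩

theorem i_cj (a : V) (x : X) : e.i a * x * (e.i a)⁻¹ = e.i (a - e.π x • a) * x := by
  rw [← i_neg, mul_assoc, mul_i, ← mul_assoc, ← i_add, smul_neg, sub_eq_add_neg]

/-- `H` maps isomorphically onto `S`. -/
structure Lift (S : Subgroup G) (H : Subgroup X) : Prop where
  map : H.map e.π = S
  inj : ∀ h ∈ H, e.π h = 1 → h = 1

variable {e} {S U R : Subgroup G} {H H' : Subgroup X}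

theorem Lift.mem (h : e.Lift S H) {x : X} (hx : x ∈ H) : e.π x ∈ S := h.map ▸ mem_map_of_mem e.π hx

theorem Lift.ex (h : e.Lift S H) {g : G} (hg : g ∈ S) : ∃ x ∈ H, e.π x = g := by rwa [← h.map] at hg

theorem Lift.eq (h : e.Lift S H) {x y : X} (hx : x ∈ H) (hy : y ∈ H) (k : e.π x = e.π y) : x = y :=
  mul_inv_eq_one.1 (h.inj _ (mul_mem hx (inv_mem hy)) (by rw [map_mul, map_inv, k, mul_inv_cancel]))

theorem Lift.zero (h : e.Lift S H) {v : V} (hv : e.i v ∈ H) : v = 0 := e.i_eq_one.1 (h.inj _ hv (e.π_i v))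

theorem Lift.res (h : e.Lift S H) (k : U ≤ S) : e.Lift U (H ⊓ U.comap e.π) :=
  ⟨le_antisymm (by rintro _ ⟨x, hx, rfl⟩; exact hx.2) fun g hg =>
    let ⟨x, hx, q⟩ := h.ex (k hg); ⟨x, ⟨hx, by rwa [← q] at hg⟩, q⟩, fun x hx => h.inj x hx.1⟩

theorem lift_bot : e.Lift ⊥ ⊥ := ⟨map_bot _, fun _ h _ => mem_bot.1 h⟩

/-- A vector whose image moves `H` into itself is fixed. -/
theorem Lift.fx (h : e.Lift S H) {a : V} (k : ∀ x ∈ H, e.i a * x * (e.i a)⁻¹ ∈ H) : Fx S a := fun g hg => by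
  obtain ⟨x, hx, rfl⟩ := h.ex hg
  have := k x hx
  rw [i_cj, H.mul_mem_cancel_right hx] at this
  exact (sub_eq_zero.1 (h.zero this)).symm

theorem Lift.cj (h : e.Lift S H) (x : X) (n : ∀ g, e.π x * g * (e.π x)⁻¹ ∈ S ↔ g ∈ S) :
    e.Lift S (H.map (MulAut.conj x).toMonoidHom) := by
  refine ⟨le_antisymm ?_ fun g hg => ?_, ?_⟩
  · rintro _ ⟨_, ⟨y, hy, rfl⟩, rfl⟩
    simpa using (n _).2 (h.mem hy)
  · obtain ⟨y, hy, q⟩ := h.ex ((n ((e.π x)⁻¹ * g * e.π x)).1 (by simpa [mul_assoc] using hg))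
    exact ⟨_, ⟨y, hy, rfl⟩, by simp [q, mul_assoc]⟩
  · rintro _ ⟨y, hy, rfl⟩ q
    have : e.π y = 1 := by simpa using q
    rw [h.inj y hy this, map_one]

/-- Two lifts are conjugate. -/
theorem Lift.conj_of (h : e.Lift S H) (h' : e.Lift S H') (z : H1z V S) :
    ∃ a, ∀ x, x ∈ H ↔ e.i a * x * (e.i a)⁻¹ ∈ H' := by
  classical
  have ex : ∀ g, ∃ v, g ∈ S → ∀ x ∈ H, e.π x = g → e.i v * x ∈ H' := fun g => by
    by_cases hg : g ∈ S
    · obtain ⟨x, hx, rfl⟩ := h.ex hg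
      obtain ⟨y, hy, q⟩ := h'.ex hg
      obtain ⟨v, rfl⟩ := e.ex_i q
      exact ⟨v, fun _ x' hx' q' => by rwa [h.eq hx' hx q']⟩
    · exact ⟨0, fun k => (hg k).elim⟩
  choose δ hδ using ex
  obtain ⟨a, ha⟩ := z δ fun g hg l hl => by
    obtain ⟨x, hx, rfl⟩ := h.ex hg
    obtain ⟨y, hy, rfl⟩ := h.ex hl
    have := h'.eq (hδ _ (mul_mem hg hl) _ (mul_mem hx hy) (map_mul _ _ _))
      (mul_mem (hδ _ hg x hx rfl) (hδ _ hl y hy rfl)) (by simp only [map_mul, π_i, one_mul])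
    rwa [mul_assoc (e.i _) x, ← mul_assoc x, mul_i, ← mul_assoc, ← mul_assoc, ← mul_assoc, ← i_add,
      mul_left_inj, mul_left_inj, i_inj] at this
  have k : ∀ x ∈ H, e.i (-a) * x * (e.i (-a))⁻¹ ∈ H' := fun x hx => by
    have := hδ _ (h.mem hx) x hx rfl
    rwa [ha _ (h.mem hx), show e.π x • a - a = -a - e.π x • -a by rw [smul_neg]; abel, ← i_cj] at this
  refine ⟨-a, fun x => ⟨k x, fun hx => ?_⟩⟩
  obtain ⟨y, hy, q⟩ := h.ex (h'.mem hx)
  have := h'.eq (k y hy) hx (by simpa [π_i] using q)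
  rwa [← mul_left_cancel (mul_right_cancel this)]

/-- The Frattini argument. -/
theorem Lift.ex_norm (h : e.Lift S H) (z : H1z V S) {g : G} (n : ∀ l, g * l * g⁻¹ ∈ S ↔ l ∈ S) :
    ∃ x, e.π x = g ∧ ∀ y, x * y * x⁻¹ ∈ H ↔ y ∈ H := by
  obtain ⟨x, rfl⟩ := e.surj g
  obtain ⟨a, ha⟩ := (h.cj x n).conj_of h z
  refine ⟨e.i a * x, by rw [map_mul, π_i, one_mul], fun y => ?_⟩
  rw [show e.i a * x * y * (e.i a * x)⁻¹ = e.i a * (x * y * x⁻¹) * (e.i a)⁻¹ by group, ← ha]
  exact mem_map_iff_mem (f := (MulAut.conj x).toMonoidHom) (MulAut.conj x).injective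

/-- Gaschütz. -/
theorem Lift.up [Finite G] (h : e.Lift U H) (_k : U ≤ S) (hn : Dv V (U.relIndex S)) : ∃ L, e.Lift S L := by
  classical
  let Q := S ⧸ U.subgroupOf S
  have : Fintype Q := Fintype.ofFinite _
  choose r hr using e.surj
  have ex : ∀ g : S, ∃ x, e.π x = g ∧ (r ((g : Q).out : S))⁻¹ * x ∈ H := fun g => by
    obtain ⟨y, hy, q⟩ := h.ex (g := (((g : Q).out)⁻¹ * g : S))
      (mem_subgroupOf.1 (QuotientGroup.eq.1 (QuotientGroup.out_eq' (g : S ⧸ U.subgroupOf S))))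
    exact ⟨r ((g : Q).out : S) * y, by rw [map_mul, hr, q]; simp, by rwa [inv_mul_cancel_left]⟩
  choose s s1 s2 using ex
  have ex2 : ∀ g l : S, ∃ v, s g * s l = e.i v * s (g * l) := fun g l =>
    e.ex_i (by rw [map_mul, s1, s1, s1, coe_mul])
  choose c hc using ex2
  have c1 : ∀ g l m : S, c g l + c (g * l) m = (g : G) • c l m + c g (l * m) := fun g l m => by
    have := mul_assoc (s g) (s l) (s m)
    rwa [hc g l, mul_assoc, hc (g * l), hc l m, ← mul_assoc (s g), mul_i, s1, mul_assoc _ (s g), hc g,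
      ← mul_assoc, ← mul_assoc, ← i_add, ← i_add, mul_assoc g, mul_left_inj, i_inj] at this
  have c2 : ∀ g l m : S, (l : Q) = m → c g l = c g m := fun g l m q => by
    have q' : ((g * l : S) : Q) = (g * m : S) := congrArg (g • ·) q
    have a1 := mul_mem (inv_mem (s2 l)) (q ▸ s2 m)
    have a2 := mul_mem (inv_mem (s2 (g * l))) (q' ▸ s2 (g * m))
    have := h.eq a1 a2 (by simp [s1, mul_assoc])
    simp only [mul_inv_rev, inv_inv, mul_assoc, mul_inv_cancel_left] at this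
    have b : e.i (c g l) * s (g * l) * ((s (g * l))⁻¹ * s (g * m)) = e.i (c g m) * s (g * m) := by
      rw [← this, ← hc, ← hc, mul_assoc, mul_inv_cancel_left]
    rwa [mul_assoc, mul_inv_cancel_left, mul_left_inj, i_inj] at b
  let d : S → Q → V := fun g q => Quotient.liftOn' q (c g) fun a b hab => c2 g a b (Quotient.sound' hab)
  choose b hb using fun g : S => hn.2 (∑ q, d g q)
  have c3 : ∀ g l : S, c g l + b (g * l) = (g : G) • b l + b g := fun g l => hn.1 (by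
    have e1 : ∑ q, (c g l + d (g * l) q) = ∑ q, ((g : G) • d l q + d g (l • q)) :=
      Finset.sum_congr rfl fun q _ => by
        induction q using QuotientGroup.induction_on with
        | H x => exact c1 g l x
    rw [Finset.sum_add_distrib, Finset.sum_add_distrib,
      show ∑ q, d g (l • q) = ∑ q, d g q from Equiv.sum_comp (MulAction.toPerm l) (d g),
      ← Finset.smul_sum, Finset.sum_const, Finset.card_univ, ← Nat.card_eq_fintype_card] at e1
    simp only at hb ⊢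
    rw [smul_add, smul_add, smul_comm _ (g : G), hb, hb, hb, relIndex, index_eq_card, e1])
  let σ : S →* X := MonoidHom.mk' (fun g => e.i (-b g) * s g) fun g l => by
    rw [mul_assoc (e.i _) (s g), ← mul_assoc (s g), mul_i, mul_assoc, hc, ← mul_assoc, ← mul_assoc, ← i_add,
      ← i_add, s1, smul_neg, eq_sub_of_add_eq' (c3 g l)]
    congr 2; abel
  have hσ : ∀ g, e.π (σ g) = g := fun g => by
    change e.π (e.i _ * s g) = g
    rw [map_mul, π_i, one_mul, s1]
  refine ⟨σ.range, le_antisymm ?_ fun g hg => ⟨_, ⟨⟨g, hg⟩, rfl⟩, hσ _⟩, ?_⟩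
  · rintro _ ⟨_, ⟨g, rfl⟩, rfl⟩
    rw [hσ]; exact g.2
  · rintro _ ⟨g, rfl⟩ q
    rw [hσ] at q
    rw [show g = 1 from Subtype.ext q, map_one]

theorem ex_lift [Finite G] (e : Ext G V X) (hn : Dv V (Nat.card S)) : ∃ L, e.Lift S L :=
  lift_bot.up bot_le (by rwa [relIndex_bot_left])

end Ext

variable (V) in
/-- `S` lifts in every extension of `G` by `V`. -/
def Splits (S : Subgroup G) : Prop := ∀ (X : Type u) [Group X] (e : Ext G V X), ∃ H, e.Lift S H

theorem Splits.up [Finite G] {U S : Subgroup G} (h : Splits.{u} V U) (k : U ≤ S) (hn : Dv V (U.relIndex S)) :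
    Splits.{u} V S := fun X _ e => let ⟨_, hH⟩ := h X e; hH.up k hn

/-- The stabiliser of a point. -/
def St {Ω : Type*} (act : G →* Equiv.Perm Ω) (x : Ω) : Subgroup G :=
  (MulAction.stabilizer (Equiv.Perm Ω) x).comap act

theorem mem_St {Ω : Type*} {act : G →* Equiv.Perm Ω} {x : Ω} {g : G} : g ∈ St act x ↔ act g x = x := Iff.rfl

end Cfsg.Agent.B43
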