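import Mathlib
import Cfsg.Agent.B43.Coh
import Cfsg.Agent.Gr.SCDef

/-! Splitting from a simply connected graph. -/

set_option autoImplicit false

namespace Cfsg.Agent.B43

open Subgroup

universe u

namespace GraAux

theorem mem_of_fix {G : Type u} {Ω : Type*} [Group G] {S : Set Ω} {adj : Ω → Ω → Prop}
    {ρ : G →* Equiv.Perm Ω} {H : Subgroup G} {s : G} {v : Ω}
    (SC : ∀ {Y : Type u} {p : Y → Ω} {A : Y → Y → Prop},
      Gr.IsCov S adj (fun _ b c => adj b c) p A → Function.Injective p)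
    (mem : ∀ g, ρ g v ∈ S) (adjc : ∀ g x y, adj x y → adj (ρ g x) (ρ g y))
    (fix : ∀ h ∈ H, ρ h v = v) (sq : s * s ∈ H) (edge : adj v (ρ s v))
    (lift : ∀ x, adj v x → ∃ h ∈ H, ρ h (ρ s v) = x)
    (uniq : ∀ h ∈ H, ρ h (ρ s v) = ρ s v → s⁻¹ * h * s ∈ H)
    (tri : ∀ h ∈ H, adj (ρ s v) (ρ h (ρ s v)) → ∃ a ∈ H, ∃ b ∈ H, s⁻¹ * h * s = a * s * b)
    {x : G} (hx : x ∈ closure (insert s (H : Set G))) (e : ρ x v = v) : x ∈ H := by
  generalize gen : closure (insert s (H : Set G)) = L at hx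
  have hH : H ≤ L := fun h hh => gen ▸ subset_closure (Or.inr hh)
  have hs : s ∈ L := gen ▸ subset_closure (Or.inl rfl)
  have cj : ∀ (g k : G) y, ρ (g * k) y = ρ g (ρ k y) := fun g k y => by rw [map_mul]; rfl
  let f : G ⧸ H → Ω := fun c => Quotient.liftOn' c (fun g => ρ g v) fun a b hab => by
    have := fix _ (QuotientGroup.leftRel_apply.1 hab)
    nth_rewrite 1 [← this]
    rw [← cj, mul_inv_cancel_left]
  have hf : ∀ g : G, f g = ρ g v := fun _ => rfl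
  let Y := {c : G ⧸ H // ∃ g ∈ L, (g : G ⧸ H) = c}
  let A : Y → Y → Prop := fun a b => ∃ g ∈ L, (g : G ⧸ H) = a.1 ∧ ((g * s : G) : G ⧸ H) = b.1
  have q : ∀ {g k : G}, (g : G ⧸ H) = k → ∃ h ∈ H, k = g * h := fun {g k} h =>
    ⟨g⁻¹ * k, QuotientGroup.eq.1 h, by group⟩
  have q' : ∀ (g : G) {h : G}, h ∈ H → ((g * h : G) : G ⧸ H) = g := fun g _ hh =>
    QuotientGroup.mk_mul_of_mem g hh
  have two : ∀ {a b c : Y}, A a b → A a c → ∃ g ∈ L, ∃ h ∈ H, (g : G ⧸ H) = a.1 ∧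
      ((g * s : G) : G ⧸ H) = b.1 ∧ ((g * (h * s) : G) : G ⧸ H) = c.1 := by
    rintro a b c ⟨g, g1, g2, g3⟩ ⟨k, -, k2, k3⟩
    obtain ⟨h, hh, rfl⟩ := q (g2.trans k2.symm)
    exact ⟨g, g1, h, hh, g2, g3, by rw [← mul_assoc, k3]⟩
  have C : Gr.IsCov S adj (fun _ b c => adj b c) (fun a : Y => f a.1) A := by
    refine ⟨?_, ?_, ?_, ?_, ?_, ?_, ?_⟩
    · rintro ⟨_, g, hg, rfl⟩
      exact mem g
    · rintro a b ⟨g, g1, g2, g3⟩
      exact ⟨g * s, mul_mem g1 hs, g3, by rw [mul_assoc, q' g sq, g2]⟩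
    · rintro a b ⟨g, g1, g2, g3⟩
      rw [← g2, ← g3, hf, hf, cj]
      exact adjc g _ _ edge
    · rintro ⟨_, g, hg, rfl⟩ y hy
      have := adjc g⁻¹ _ _ hy
      rw [hf, ← cj, inv_mul_cancel, map_one, Equiv.Perm.one_apply] at this
      obtain ⟨h, hh, e⟩ := lift _ this
      have m := mul_mem hg (hH hh)
      refine ⟨⟨_, g * h * s, mul_mem m hs, rfl⟩, ⟨g * h, m, q' g hh, rfl⟩, ?_⟩
      change f (g * h * s : G) = y
      rw [hf, mul_assoc g, cj, cj, e, ← cj, mul_inv_cancel, map_one, Equiv.Perm.one_apply]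
    · intro a b c h1 h2 e
      obtain ⟨g, -, h, hh, -, g3, g4⟩ := two h1 h2
      rw [← g3, ← g4, hf, hf, cj, cj g, cj h, (ρ g).apply_eq_iff_eq] at e
      refine Subtype.ext (g3.symm.trans (Eq.trans (QuotientGroup.eq.2 ?_) g4))
      convert uniq h hh e.symm using 1
      group
    · intro a b c h1 h2 t
      obtain ⟨g, g1, h, hh, g2, g3, g4⟩ := two h1 h2
      have := adjc g⁻¹ _ _ t
      rw [← g3, ← g4, hf, hf, ← cj, ← cj, inv_mul_cancel_left, inv_mul_cancel_left, cj] at this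
      obtain ⟨y, hy, z, hz, e⟩ := tri h hh this
      refine ⟨g * s * y, mul_mem (mul_mem g1 hs) (hH hy), (q' _ hy).trans g3, ?_⟩
      rw [← g4, show g * (h * s) = g * s * y * s * z by
        rw [mul_assoc (g * s), mul_assoc (g * s), ← e]; group, q' _ hz]
    · have sy : ∀ {a b : Y}, Relation.ReflTransGen A a b → Relation.ReflTransGen A b a := fun h => by
        induction h with
        | refl => rfl
        | tail _ k ih =>
          obtain ⟨g, g1, g2, g3⟩ := k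
          exact ih.head ⟨g * s, mul_mem g1 hs, g3, by rw [mul_assoc, q' g sq, g2]⟩
      have key : ∀ k ∈ L, ∀ g (hg : g ∈ L), ∀ hk, Relation.ReflTransGen A ⟨g, g, hg, rfl⟩
          ⟨(g * k : G), g * k, hk, rfl⟩ := fun k hk => by
        rw [← gen] at hk
        induction hk using closure_induction with
        | mem x hx =>
          intro g hg m
          rcases hx with rfl | hx
          · exact .single ⟨g, hg, rfl, rfl⟩
          · rw [show (⟨(g * x : G), g * x, m, rfl⟩ : Y) = ⟨g, g, hg, rfl⟩ from Subtype.ext (q' g hx)]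
        | one => intro g hg m; simp only [mul_one]; rfl
        | mul x y hx _ ix iy =>
          intro g hg m
          have := mul_mem hg (gen ▸ hx : x ∈ L)
          simpa only [mul_assoc] using (ix g hg this).trans (iy _ this (mul_assoc g x y ▸ m))
        | inv x _ ix =>
          intro g hg m
          have := ix _ m (by simpa using hg)
          simp only [inv_mul_cancel_right] at this
          exact sy this
      rintro ⟨_, g, hg, rfl⟩ ⟨_, k, hk, rfl⟩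
      simpa only [mul_inv_cancel_left] using key _ (mul_mem (inv_mem hg) hk) g hg (by simpa using hk)
  have := SC C (a₁ := ⟨(1 : G), 1, one_mem _, rfl⟩) (a₂ := ⟨x, x, hx, rfl⟩) (by
    change f (1 : G) = f x
    rw [hf, hf, e, map_one, Equiv.Perm.one_apply])
  simpa using QuotientGroup.eq.1 (congrArg Subtype.val this)

theorem mem_norm {X : Type*} [Group X] {P : Subgroup X} {g : X} (h : g * g ∈ P)
    (k : ∀ y ∈ P, g * y * g⁻¹ ∈ P) : g ∈ normalizer (P : Set X) := fun y => ⟨k y, fun hy => by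
  have := mul_mem (mul_mem (inv_mem h) (k _ hy)) h
  simpa [mul_assoc] using this⟩

variable {G V X : Type*} [Group G] [AddCommGroup V] [DistribMulAction G V] [Group X] {e : Ext G V X}
  {S : Subgroup G} {H : Subgroup X}

theorem smul_eq (h : e.Lift S H) {c : X} {a b : V} (k : (c * e.i a * c⁻¹)⁻¹ * e.i b ∈ H) :
    e.π c • a = b := by
  rw [e.cj, ← e.i_neg, ← e.i_add] at k
  exact neg_add_eq_zero.1 (h.zero k)

/-- The reversal of an edge. -/
theorem ex_rev (h : e.Lift S H) (h2 : Dv V 2) (z : H1z V S) {g : G} (hg : g * g ∈ S)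
    (n : ∀ l, g * l * g⁻¹ ∈ S ↔ l ∈ S) : ∃ s, e.π s = g ∧ s * s ∈ H ∧ s ∈ normalizer (H : Set X) := by
  obtain ⟨s, rfl, hs⟩ := h.ex_norm z n
  have hs' : s ∈ normalizer (H : Set X) := fun y => (hs y).symm
  obtain ⟨l, hl, q⟩ := h.ex hg
  obtain ⟨a, ha⟩ := e.ex_i (x := s * s) (y := l) (by rw [q, map_mul])
  have h3 : e.i a = s * s * l⁻¹ := by rw [ha, mul_inv_cancel_right]
  have h4 : Fx S a := h.fx fun x hx =>
    ((h3 ▸ mul_mem (mul_mem hs' hs') (inv_mem (le_normalizer hl)) : e.i a ∈ normalizer (H : Set X)) x).1 hx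
  have h5 : e.π s • a = a := smul_eq h (by
    rw [h3, show (s * (s * s * l⁻¹) * s⁻¹)⁻¹ * (s * s * l⁻¹) = s * l * s⁻¹ * l⁻¹ by group]
    exact mul_mem ((hs l).2 hl) (inv_mem hl))
  obtain ⟨b, hb⟩ := h2.2 (-a)
  have h6 : ∀ g : G, g • a = a → g • b = b := fun g hg => h2.1 (by
    simp only at hb ⊢
    rw [smul_comm, hb, smul_neg, hg])
  refine ⟨e.i b * s, by rw [map_mul, e.π_i, one_mul], ?_, mul_mem (fun x => ?_) hs'⟩
  · rw [mul_assoc, ← mul_assoc s, e.mul_i, h6 _ h5, mul_assoc, ha, ← mul_assoc, ← mul_assoc, ← e.i_add,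
      ← e.i_add, ← two_nsmul, show 2 • b = -a from hb, neg_add_cancel, e.i_zero, one_mul]
    exact hl
  · have k : ∀ c : V, (∀ g ∈ S, g • c = c) → ∀ x ∈ H, e.i c * x * (e.i c)⁻¹ = x := fun c hc x hx => by
      rw [e.i_cj, hc _ (h.mem hx), sub_self, e.i_zero, one_mul]
    refine ⟨fun hx => (k b (fun g hg => h6 g (h4 g hg)) x hx).symm ▸ hx, fun hx => ?_⟩
    have := k (-b) (fun g hg => by rw [smul_neg, h6 g (h4 g hg)]) _ hx
    rw [e.i_neg] at this
    simp only [inv_inv, mul_assoc, inv_mul_cancel_left, inv_mul_cancel, mul_one] at this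
    rwa [this, ← mul_assoc]

/-- The braid relation modulo the lift of a triangle group. -/
theorem braid (h : e.Lift S H) (h2 : Dv V 2) {s t : X} (hs : s ∈ normalizer (H : Set X))
    (ht : t ∈ normalizer (H : Set X)) (s2 : s * s ∈ H) (t2 : t * t ∈ H) (h3 : e.π ((s * t) ^ 3) ∈ S)
    (k : ∀ a : V, Fx S a → (e.π s * e.π t) • a = a → e.π s • a = a) :
    ∃ q ∈ H, s⁻¹ * t * s = t * s * t * q := by
  obtain ⟨l, hl, q⟩ := h.ex h3
  obtain ⟨a, ha⟩ := e.ex_i q.symm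
  have h4 : e.i a = (s * t) ^ 3 * l⁻¹ := by rw [ha, mul_inv_cancel_right]
  have hc := mul_mem hs ht
  have h5 : e.i a ∈ normalizer (H : Set X) := h4 ▸ mul_mem (pow_mem hc 3) (inv_mem (le_normalizer hl))
  have h6 := k a (h.fx fun x hx => (h5 x).1 hx) (map_mul e.π s t ▸ smul_eq h (by
    rw [h4, show (s * t * ((s * t) ^ 3 * l⁻¹) * (s * t)⁻¹)⁻¹ * ((s * t) ^ 3 * l⁻¹) =
      s * t * l * (s * t)⁻¹ * l⁻¹ by group]
    exact mul_mem ((hc l).1 hl) (inv_mem hl)))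
  let φ := QuotientGroup.mk' (H.subgroupOf (normalizer (H : Set X)))
  have hφ : ∀ y, φ y = 1 ↔ (y : X) ∈ H := fun y => QuotientGroup.eq_one_iff y
  have e1 : (φ ⟨s, hs⟩)⁻¹ = φ ⟨s, hs⟩ := inv_eq_of_mul_eq_one_right (by rw [← map_mul, hφ]; exact s2)
  have e2 : (φ ⟨t, ht⟩)⁻¹ = φ ⟨t, ht⟩ := inv_eq_of_mul_eq_one_right (by rw [← map_mul, hφ]; exact t2)
  have e3 : φ ⟨_, h5⟩ = (φ ⟨s, hs⟩ * φ ⟨t, ht⟩) ^ 3 := by
    rw [← map_mul, ← map_pow, show (⟨s, hs⟩ * ⟨t, ht⟩) ^ 3 = (⟨_, h5⟩ * ⟨l, le_normalizer hl⟩ :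
      normalizer (H : Set X)) from Subtype.ext ha, map_mul, (hφ ⟨l, _⟩).2 hl, mul_one]
  have e4 : φ ⟨s, hs⟩ * φ ⟨_, h5⟩ = φ ⟨_, h5⟩ * φ ⟨s, hs⟩ := by
    rw [← map_mul, ← map_mul]
    exact congrArg φ (Subtype.ext (by rw [coe_mul, coe_mul, e.mul_i, h6]))
  have e5 : φ ⟨_, h5⟩ * φ ⟨_, h5⟩ = 1 := by
    nth_rewrite 1 [← mul_inv_eq_iff_eq_mul.2 e4]
    rw [e3]
    generalize φ ⟨s, hs⟩ = σ at e1
    generalize φ ⟨t, ht⟩ = τ at e2
    calc σ * (σ * τ) ^ 3 * σ⁻¹ * (σ * τ) ^ 3 = σ * (σ⁻¹ * τ⁻¹ * σ⁻¹ * τ⁻¹ * σ⁻¹ * τ⁻¹) * σ⁻¹ *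
        (σ * τ) ^ 3 := by rw [e1, e2, pow_three]; group
      _ = 1 := by rw [pow_three]; group
  rw [← map_mul, hφ, coe_mul, ← e.i_add, ← two_nsmul] at e5
  obtain rfl := h2.eq_zero (h.zero e5)
  rw [(hφ _).2 (by rw [coe_mk, e.i_zero]; exact one_mem _)] at e3
  refine ⟨_, (hφ ((⟨t, ht⟩ * ⟨s, hs⟩ * ⟨t, ht⟩)⁻¹ * (⟨s, hs⟩⁻¹ * ⟨t, ht⟩ * ⟨s, hs⟩))).1 ?_,
    (mul_inv_cancel_left (t * s * t) _).symm⟩
  simp only [map_mul, map_inv]
  generalize φ ⟨s, hs⟩ = σ at e1 e3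
  generalize φ ⟨t, ht⟩ = τ at e2 e3
  calc _ = (τ * σ * τ)⁻¹ * (σ⁻¹ * τ⁻¹ * σ⁻¹) := by rw [e2, e1]
    _ = ((σ * τ) ^ 3)⁻¹ := by rw [pow_three]; group
    _ = 1 := by rw [← e3, inv_one]

end GraAux

open GraAux

variable {G V : Type*} [Group G] [AddCommGroup V] [DistribMulAction G V]

theorem splits_graph {Ω : Type*} (act : G →* Equiv.Perm Ω) (S : Set Ω) (adj : Ω → Ω → Prop) (x0 y0 : Ω)
    (SC : ∀ {Y : Type u} {p : Y → Ω} {A : Y → Y → Prop},
      Gr.IsCov S adj (fun _ b c => adj b c) p A → Function.Injective p)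
    (hS : ∀ g, act g x0 ∈ S) (hadj : ∀ g x y, adj x y → adj (act g x) (act g y)) (h0 : adj x0 y0)
    (conn : ∀ g, Relation.ReflTransGen adj x0 (act g x0))
    (tr : ∀ y, adj x0 y → ∃ g, act g x0 = x0 ∧ act g y0 = y) (sw : ∃ g, act g x0 = y0 ∧ act g y0 = x0)
    (tri : ∀ z, adj x0 z → adj y0 z → ∃ t s : G, (act t x0 = x0 ∧ act t y0 = z ∧ act t z = y0) ∧
      (act s x0 = y0 ∧ act s y0 = x0 ∧ act s z = z) ∧
      ∀ a : V, Fx (St act x0 ⊓ St act y0 ⊓ St act z) a → (s * t) • a = a → s • a = a)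
    (h2 : Dv V 2) (hx : Splits.{u} V (St act x0)) (h1 : H1z V (St act x0 ⊓ St act y0)) :
    Splits.{u} V (⊤ : Subgroup G) := by
  intro X _ e
  obtain ⟨H, hH⟩ := hx X e
  obtain ⟨g, g1, g2⟩ := sw
  have mu : ∀ (g k : G) y, act (g * k) y = act g (act k y) := fun g k y => by rw [map_mul]; rfl
  have iv : ∀ {g : G} {x y}, act g x = y → act g⁻¹ y = x := fun h => by
    rw [← h, ← mu, inv_mul_cancel, map_one, Equiv.Perm.one_apply]
  have cj : ∀ {g l : G} {x y}, act g x = y → (g * l * g⁻¹ ∈ St act y ↔ l ∈ St act x) := fun h => by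
    rw [mem_St, mem_St, mu, mu, iv h, ← h, Equiv.apply_eq_iff_eq]
  have hH1 := hH.res (U := St act x0 ⊓ St act y0) inf_le_left
  obtain ⟨s, rfl, s2, s3⟩ := ex_rev hH1 h2 h1 (g := g) ⟨mem_St.2 (by rw [mu, g1, g2]),
    mem_St.2 (by rw [mu, g2, g1])⟩
    fun l => by rw [mem_inf, mem_inf, cj g1, cj g2, and_comm]
  have m1 : ∀ h ∈ H, act (e.π h) y0 = y0 → h ∈ H ⊓ (St act x0 ⊓ St act y0).comap e.π :=
    fun h hh k => ⟨hh, hH.mem hh, k⟩
  have key : ∀ {x}, x ∈ closure (insert s (H : Set X)) → act (e.π x) x0 = x0 → x ∈ H :=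
    mem_of_fix (ρ := act.comp e.π) SC (fun g => hS _) (fun g => hadj _) (fun h hh => hH.mem hh) s2.1
      (g1.symm ▸ h0 : adj x0 (act (e.π s) x0)) (fun x hx => by
        obtain ⟨g, k1, k2⟩ := tr x hx
        obtain ⟨h, hh, rfl⟩ := hH.ex (g := g) k1
        exact ⟨h, hh, by rw [← k2, ← g1]; rfl⟩)
      (fun h hh k => by
        simpa using ((inv_mem s3 h).1 (m1 h hh (by rw [← g1]; exact k))).1) fun h hh k => by
      replace k : adj y0 (act (e.π h) y0) := by rw [← g1]; exact k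
      have k' := hadj (e.π h) _ _ h0
      rw [mem_St.1 (hH.mem hh)] at k'
      obtain ⟨t, s', ⟨t1, t2, t3⟩, ⟨r1, r2, r3⟩, hf⟩ := tri _ k' k
      generalize hz : act (e.π h) y0 = z at *
      obtain ⟨t, ht, rfl⟩ := hH.ex (g := t) t1
      obtain ⟨d, hd, q⟩ := hH1.ex (g := (e.π s)⁻¹ * s')
        ⟨mem_St.2 (by rw [mu, r1, iv g1]), mem_St.2 (by rw [mu, r2, iv g2])⟩
      obtain rfl : s' = e.π (s * d) := by rw [map_mul, q, mul_inv_cancel_left]
      have n1 := mul_mem s3 (le_normalizer hd)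
      have hP := hH.res (U := St act x0 ⊓ St act y0 ⊓ St act z) (inf_le_left.trans inf_le_left)
      have p1 : s * d * (s * d) ∈ H ⊓ (St act x0 ⊓ St act y0 ⊓ St act z).comap e.π := by
        have : s * d * (s * d) ∈ H ⊓ (St act x0 ⊓ St act y0).comap e.π := by
          rw [show s * d * (s * d) = s * d * s⁻¹ * (s * s) * d by group]
          exact mul_mem (mul_mem ((s3 d).1 hd) s2) hd
        exact ⟨this.1, this.2, mem_St.2 (by rw [map_mul e.π, mu, r3, r3])⟩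
      have p2 : t * t ∈ H ⊓ (St act x0 ⊓ St act y0 ⊓ St act z).comap e.π :=
        ⟨mul_mem ht ht, ⟨hH.mem (mul_mem ht ht), mem_St.2 (by rw [map_mul e.π, mu, t2, t3])⟩,
          mem_St.2 (by rw [map_mul e.π, mu, t3, t2])⟩
      obtain ⟨c, hc, b⟩ := braid hP h2 (mem_norm p1 fun y hy => by
          have := (n1 y).1 ⟨hy.1, hy.2.1⟩
          exact ⟨this.1, this.2, by
            rw [map_mul, map_mul, map_inv]; exact (cj r3).2 hy.2.2⟩)
        (mem_norm p2 fun y hy => mem_inf.2 ⟨mul_mem (mul_mem ht hy.1) (inv_mem ht), by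
          rw [mem_comap, map_mul, map_mul, map_inv]
          exact ⟨⟨(cj t1).2 hy.2.1.1, (cj t3).2 hy.2.2⟩, (cj t2).2 hy.2.1.2⟩⟩) p1 p2
        (by
          rw [map_pow, map_mul e.π (s * d), pow_three]
          refine ⟨⟨mem_St.2 ?_, mem_St.2 ?_⟩, mem_St.2 ?_⟩ <;> simp only [mu, t1, t2, t3, r1, r2, r3]) hf
      have d1 := m1 _ (mul_mem (inv_mem ht) hh) (by rw [map_mul e.π, mu, hz, map_inv, iv t2])
      have d2 := (inv_mem n1 _).1 d1
      refine ⟨d * t, mul_mem hd.1 ht, _, mul_mem (mul_mem (mul_mem (mul_mem hd.1 ht) hc.1) d2.1)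
        (inv_mem hd.1), ?_⟩
      calc s⁻¹ * h * s = d * ((s * d)⁻¹ * t * (s * d)) * ((s * d)⁻¹ * (t⁻¹ * h) * (s * d)) * d⁻¹ := by
            group
        _ = _ := by rw [b]; group
  have hH' : H ≤ closure (insert s (H : Set X)) := fun h hh => subset_closure (Or.inr hh)
  refine ⟨closure (insert s (H : Set X)), top_unique fun g _ => ?_, fun x hx k =>
    hH.inj x (key hx (by rw [k, map_one, Equiv.Perm.one_apply])) k⟩
  have reach : ∀ {y}, Relation.ReflTransGen adj x0 y →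
      ∃ l ∈ closure (insert s (H : Set X)), act (e.π l) x0 = y := fun h => by
    induction h with
    | refl => exact ⟨1, one_mem _, by rw [map_one, map_one, Equiv.Perm.one_apply]⟩
    | tail _ k ih =>
      obtain ⟨l, hl, rfl⟩ := ih
      have := hadj (e.π l)⁻¹ _ _ k
      rw [iv rfl] at this
      obtain ⟨g, k1, k2⟩ := tr _ this
      obtain ⟨h, hh, rfl⟩ := hH.ex (g := g) k1
      exact ⟨l * h * s, mul_mem (mul_mem hl (hH' hh)) (subset_closure (Or.inl rfl)), by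
        rw [map_mul e.π, map_mul e.π, mu, mu, g1, k2, ← mu, mul_inv_cancel, map_one, Equiv.Perm.one_apply]⟩
  obtain ⟨l, hl, k⟩ := reach (conn g)
  obtain ⟨h, hh, q⟩ := hH.ex (g := (e.π l)⁻¹ * g) (by rw [mem_St, mu, iv k])
  exact ⟨l * h, mul_mem hl (hH' hh), by rw [map_mul, q, mul_inv_cancel_left]⟩

end Cfsg.Agent.B43
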