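import Mathlib
import Cfsg.Agent.B43.Coh

/-! Perfect groups with cyclic Sylow subgroups, and pull-backs. -/

set_option autoImplicit false

namespace Cfsg.Agent.B43

open Subgroup
open scoped commutatorElement

universe u

namespace PfAux

/-- A central commutator dies in the power given by the index of a central-by-cyclic subgroup. -/
theorem pow_eq_one {Y : Type*} [Group Y] {B : Subgroup Y} [B.FiniteIndex] {w z : Y}
    (hB : ∀ b ∈ B, ∃ k : ℤ, b * w ^ k ∈ center Y) (hz : z ∈ center Y) (hc : z ∈ commutator Y) :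
    z ^ B.index = 1 := by
  have key : ∀ a ∈ B, ∀ b ∈ B, a * b = b * a := fun a ha b hb => by
    obtain ⟨k, hk⟩ := hB a ha
    obtain ⟨l, hl⟩ := hB b hb
    have h1 : Commute (a * w ^ k) (b * w ^ l) := (mem_center_iff.1 hk _).symm
    have h2 : Commute (a * w ^ k) (w ^ (-l)) := (mem_center_iff.1 hk _).symm
    have h3 : Commute (w ^ (-k)) (b * w ^ l) := mem_center_iff.1 hl _
    have := (h1.mul_right h2).mul_left (h3.mul_right (Commute.zpow_zpow_self w (-k) (-l)))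
    simpa using this.eq
  let _ : CommGroup B := { (inferInstance : Group B) with
    mul_comm := fun a b => Subtype.ext (key a a.2 b b.2) }
  have h1 := MonoidHom.transfer_eq_pow (MonoidHom.id B) z fun k g _ => by
    rw [mul_assoc, ← mem_center_iff.1 (pow_mem hz k), inv_mul_cancel_left]
  rw [MonoidHom.mem_ker.1 (Abelianization.commutator_subset_ker _ hc)] at h1
  exact (congrArg Subtype.val h1).symm

end PfAux

variable {G V : Type*} [Group G] [AddCommGroup V] [DistribMulAction G V]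

theorem splits_perf [Finite G] {R S : Subgroup G} {p : ℕ} (hp : p = 0 ∨ p.Prime) (hV : Chr V p) (k : R ≤ S)
    (n : ∀ g ∈ S, ∀ r ∈ R, g * r * g⁻¹ ∈ R) (hR : Dv V (Nat.card R)) (fx : ∀ v : V, Fx R v → Fx S v)
    (pf : S ≤ ⁅S, S⁆ ⊔ R) (hc : ¬ p ^ 2 ∣ R.relIndex S) : Splits.{u} V S := by
  intro X _ e
  obtain ⟨L, hL⟩ := e.ex_lift hR
  by_cases hd : p ∣ R.relIndex S
  swap
  · exact hL.up k (hV _ hd)
  have := Fact.mk (hp.resolve_left fun h => hc (by rwa [h, zero_pow two_ne_zero, ← h]))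
  have n' : ∀ g ∈ S, ∀ r, g * r * g⁻¹ ∈ R ↔ r ∈ R := fun g hg r =>
    ⟨fun h => by simpa [mul_assoc] using n _ (inv_mem hg) _ h, n g hg r⟩
  have : (R.subgroupOf S).Normal := ⟨fun r hr g => n g g.2 r hr⟩
  obtain ⟨w, hw⟩ := exists_prime_orderOf_dvd_card' (G := S ⧸ R.subgroupOf S) p hd
  let Y := S.comap e.π ⊓ normalizer (L : Set X)
  have hLY : L ≤ Y := fun x hx => ⟨k (hL.mem hx), le_normalizer hx⟩
  have hY : ∀ g ∈ S, ∃ y ∈ Y, e.π y = g := fun g hg => by
    obtain ⟨y, rfl, h⟩ := hL.ex_norm (h1z_card hR) (n' g hg)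
    exact ⟨y, ⟨hg, fun x => (h x).symm⟩, rfl⟩
  have hYS : Y.map e.π = S := le_antisymm (by rintro _ ⟨y, hy, rfl⟩; exact hy.1) hY
  have : (L.subgroupOf Y).Normal := ⟨fun x hx y => (y.2.2 x).1 hx⟩
  let q := QuotientGroup.mk' (L.subgroupOf Y)
  have hq : ∀ y : Y, q y = 1 ↔ (y : X) ∈ L := fun y => QuotientGroup.eq_one_iff y
  have cen : ∀ y : Y, e.π y ∈ R → q y ∈ center _ := fun y hy => by
    obtain ⟨l, hl, h⟩ := hL.ex hy
    obtain ⟨b, hb⟩ := e.ex_i h.symm
    have h1 : e.i b ∈ Y := by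
      rw [← mul_mem_cancel_right (hLY hl), ← hb]; exact y.2
    have h2 := fx b (hL.fx fun x hx => (h1.2 x).1 hx)
    rw [show y = ⟨_, h1⟩ * ⟨l, hLY hl⟩ from Subtype.ext hb, map_mul, (hq ⟨l, _⟩).2 hl, mul_one,
      mem_center_iff]
    intro g
    obtain ⟨g, rfl⟩ := QuotientGroup.mk'_surjective _ g
    rw [← map_mul, ← map_mul]
    exact congrArg q (Subtype.ext (by rw [coe_mul, coe_mul, e.mul_i, h2 _ g.2.1]))
  let f : Y →* S ⧸ R.subgroupOf S := (QuotientGroup.mk' _).comp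
    ((e.π.comp Y.subtype).codRestrict S fun y => y.2.1)
  have hf : ∀ y : Y, f y = 1 ↔ e.π y ∈ R := fun y => QuotientGroup.eq_one_iff _
  have hs : Function.Surjective f := fun g => by
    obtain ⟨g, rfl⟩ := QuotientGroup.mk'_surjective _ g
    obtain ⟨y, hy, h⟩ := hY g g.2
    exact ⟨⟨y, hy⟩, congrArg (QuotientGroup.mk' _) (Subtype.ext h)⟩
  obtain ⟨w, rfl⟩ := hs w
  let B := ((zpowers (f w)).comap f).map q
  have hB : B.index = (zpowers (f w)).index := by
    rw [index_map_eq _ (QuotientGroup.mk'_surjective _) fun y hy => by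
      rw [mem_comap, (hf y).2 (hL.mem ((hq y).1 hy))]; exact one_mem _,
      index_comap_of_surjective _ hs]
  have : B.FiniteIndex := ⟨hB ▸ FiniteIndex.index_ne_zero⟩
  have hm : ¬ p ∣ B.index := fun h => hc (by
    rw [relIndex, index_eq_card, ← (zpowers (f w)).card_mul_index, Nat.card_zpowers, hw, ← hB, pow_two]
    exact mul_dvd_mul_left p h)
  refine ⟨⁅Y, Y⁆ ⊔ L, ?_, fun x hx h1 => ?_⟩
  · rw [Subgroup.map_sup, map_commutator, hYS, hL.map]
    exact le_antisymm (sup_le (commutator_le.2 fun a ha b hb =>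
      mul_mem (mul_mem (mul_mem ha hb) (inv_mem ha)) (inv_mem hb)) k) pf
  have hK : ⁅Y, Y⁆ ⊔ L ≤ ((commutator _).comap q).map Y.subtype := by
    refine sup_le (commutator_le.2 fun a ha b hb => ⟨⁅(⟨a, ha⟩ : Y), ⟨b, hb⟩⁆, ?_, rfl⟩) fun l hl =>
      ⟨⟨l, hLY hl⟩, ?_, rfl⟩
    · rw [SetLike.mem_coe, mem_comap, map_commutatorElement]
      exact commutator_mem_commutator (mem_top _) (mem_top _)
    · rw [SetLike.mem_coe, mem_comap, (hq ⟨l, _⟩).2 hl]
      exact one_mem _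
  obtain ⟨y, hy, rfl⟩ := hK hx
  have h2 := PfAux.pow_eq_one (B := B) (w := q w) (by
    rintro _ ⟨b, ⟨j, hj⟩, rfl⟩
    refine ⟨-j, ?_⟩
    rw [← map_zpow, ← map_mul]
    exact cen _ ((hf _).1 (by rw [map_mul, map_zpow, ← hj, zpow_neg, mul_inv_cancel])))
    (cen y (by rw [show e.π y = 1 from h1]; exact one_mem _)) hy
  obtain ⟨a, ha⟩ := (e.ker _).1 h1
  rw [← map_pow, hq, coe_pow, show (y : X) = e.i a from ha.symm, ← e.i_nsmul] at h2
  rw [← ha]
  exact e.i_eq_one.2 ((hV _ hm).eq_zero (hL.zero h2))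

theorem Splits.map {G' : Type} [Group G'] [DistribMulAction G' V] (φ : G' →* G)
    (hφ : ∀ g (v : V), g • v = φ g • v) (h2 : Dv V 2) (hk : ∀ g, φ g = 1 → g * g = 1) {S' : Subgroup G'}
    (h : Splits.{u} V S') : Splits.{u} V (S'.map φ) := by
  intro X _ e
  let X' := (e.π.comp (MonoidHom.fst X G')).eqLocus (φ.comp (MonoidHom.snd X G'))
  let e' : Ext G' V X' :=
    { π := (MonoidHom.snd X G').comp X'.subtype
      ι := ((MonoidHom.inl X G').comp e.ι).codRestrict X' fun v =>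
        (e.π_i v.toAdd).trans (map_one φ).symm
      surj := fun g => let ⟨x, hx⟩ := e.surj (φ g); ⟨⟨(x, g), hx⟩, rfl⟩
      inj := fun v w h => e.inj (congrArg (fun x : X' => x.1.1) h)
      ker := fun x => ⟨fun h => by
        have h1 : x.1.2 = 1 := h
        obtain ⟨v, hv⟩ := (e.ker x.1.1).1 (x.2.trans (by change φ x.1.2 = 1; rw [h1, map_one]))
        exact ⟨v, Subtype.ext (Prod.ext hv h1.symm)⟩, by rintro ⟨v, rfl⟩; rfl⟩
      conj := fun x v => Subtype.ext (Prod.ext ((e.conj x.1.1 v).trans (by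
        rw [hφ, show e.π x.1.1 = φ x.1.2 from x.2]; rfl))
        (show x.1.2 * 1 * x.1.2⁻¹ = 1 by simp)) }
  obtain ⟨H, hH⟩ := h X' e'
  refine ⟨H.map ((MonoidHom.fst X G').comp X'.subtype), ?_, ?_⟩
  · rw [← hH.map, map_map, map_map]
    congr 1
    exact MonoidHom.ext fun x => x.2
  · rintro _ ⟨x, hx, rfl⟩ h1
    have h3 : x * x = 1 := hH.inj _ (mul_mem hx hx) (hk x.1.2 (x.2.symm.trans h1))
    obtain ⟨a, ha⟩ := (e.ker _).1 h1
    rw [← ha]
    refine e.i_eq_one.2 (h2.eq_zero (e.i_eq_one.1 ?_))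
    rw [two_nsmul, e.i_add, Ext.i, ha]
    exact congrArg (fun x : X' => x.1.1) h3

end Cfsg.Agent.B43
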